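import Cfsg.Agent.H97.JmKD

/-! JM-KC: soundness of the certificate checks. -/

set_option autoImplicit false

namespace Cfsg.Agent.H97.JM

open Subgroup Cfsg.Agent.H42 Cfsg.Agent.H46 Cfsg.Agent.H17.J4R

universe u

namespace KC

variable {G : Type u} [Group G] (C : Coded O G)

theorem pwL_cons (a : ℕ) (b : Bool) (l : List Bool) (x : ℕ) :
    pwL a (b :: l) x = iteB b (force (mul (mul x x) a) (pwL a l)) (pwL a l (mul x x)) :=
  force_eq (mul x x) fun y => iteB b (force (mul y a) (pwL a l)) (pwL a l y)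

theorem R_pwL {a : ℕ} {g : G} (h : C.R a g) (l : List Bool) {x n : ℕ} (hx : C.R x (g ^ n)) :
    C.R (pwL a l x) (g ^ valL l n) := by
  induction l generalizing x n with
  | nil => exact hx
  | cons b l ih =>
    have h2 : C.R (mul x x) (g ^ (2 * n)) := by
      rw [two_mul, pow_add]; exact C.R_mul hx hx
    rw [pwL_cons]
    cases b with
    | false => exact ih h2
    | true =>
      show C.R (force (mul (mul x x) a) (pwL a l)) (g ^ valL l (2 * n + 1))
      rw [force_eq]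
      exact ih (by rw [pow_succ]; exact C.R_mul h2 h)

theorem ord_dvd [Finite G] {H : Subgroup G} {a : ℕ} {l : List Bool} (ha : C.Mem H a)
    (hp : (valL l 1).Prime) (h : ordB a l = true) : valL l 1 ∣ Nat.card H := by
  obtain ⟨g, hg, r⟩ := ha
  rw [ordB, force_eq] at h
  obtain ⟨h1, h2⟩ := andB_iff.1 h
  have := Fact.mk hp
  have e1 : g ^ valL l 1 = 1 :=
    C.eq_of_eqB (R_pwL C r l (by rwa [pow_one])) C.R_one h1
  have e2 : g ≠ 1 := C.ne_of_eqB r C.R_one (notB_iff.1 h2)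
  rw [← orderOf_eq_prime e1 e2]
  exact orderOf_dvd_natCard H hg

theorem mem_nth {K : Subgroup G} {l : List ℕ} (h : ∀ a ∈ l, C.Mem K a) (i : ℕ) :
    C.Mem K (nthO l i) := by
  induction l generalizing i with
  | nil => exact Coded.Mem.one C K
  | cons a l ih =>
    cases i with
    | zero => exact h a List.mem_cons_self
    | succ i => exact ih (fun b hb => h b (List.mem_cons_of_mem _ hb)) i

theorem mem_word {K : Subgroup G} {l : List ℕ} (h : ∀ a ∈ l, C.Mem K a) (w : List ℕ) :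
    C.Mem K (O.word (nthO l) w) :=
  C.mem_wordOn w (fun j _ => mem_nth C h j) (Coded.Mem.one C K)

theorem cert [Finite G] {M : Subgroup G} {L : List ℕ} {b1 b2 : List Bool} {a : ℕ} {c1 c2 : List ℕ}
    {g : G} (hL : ∀ a ∈ L, C.Mem M a) (p1 : (valL b1 1).Prime) (p2 : (valL b2 1).Prime)
    (r : C.R a g) (h : certB L b1 b2 a c1 c2 = true) :
    ∀ H : Subgroup G, M ≤ H → g ∈ H → valL b1 1 ∣ Nat.card H ∧ valL b2 1 ∣ Nat.card H := by
  intro H hM hg
  have k : ∀ b ∈ a :: L, C.Mem H b := fun b hb => by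
    rcases List.mem_cons.1 hb with rfl | hb
    · exact ⟨g, hg, r⟩
    · exact (hL b hb).mono hM
  obtain ⟨h1, h2⟩ := andB_iff.1 h
  exact ⟨ord_dvd C (mem_word C k c1) p1 h1, ord_dvd C (mem_word C k c2) p2 h2⟩

theorem cjW_cons (ks ki : List ℕ) (j : ℕ) (w : List ℕ) (a : ℕ) :
    cjW ks ki (j :: w) a = cjW ks ki w (mul (mul (nthO ks j) a) (nthO ki j)) :=
  force_eq (mul (mul (nthO ks j) a) (nthO ki j)) (cjW ks ki w)

theorem R_cjW {K : Subgroup G} {ks ki : List ℕ}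
    (h : ∀ j, ∃ k ∈ K, C.R (nthO ks j) k ∧ C.R (nthO ki j) k⁻¹) (w : List ℕ) {a : ℕ} {t : G}
    (r : C.R a t) : ∃ c ∈ K, C.R (cjW ks ki w a) (c * t * c⁻¹) := by
  induction w generalizing a t with
  | nil => exact ⟨1, one_mem _, by rw [one_mul, inv_one, mul_one]; exact r⟩
  | cons j w ih =>
    obtain ⟨k, hk, r1, r2⟩ := h j
    obtain ⟨c, hc, r3⟩ := ih (C.R_mul (C.R_mul r1 r) r2)
    refine ⟨c * k, mul_mem hc hk, ?_⟩
    rw [cjW_cons, show c * k * t * (c * k)⁻¹ = c * (k * t * k⁻¹) * c⁻¹ by group]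
    exact r3

theorem vp_act {a v : ℕ} {g : GL112} {x : Fin 112 → ZMod 2} (r : CG.R a g) (h : VP v x) :
    VP (act a v) (g • x) := matData.P_act (Equiv.refl _) a g v x r h

end KC

theorem pKC : KC.{u} := by
  intro G _ _ ρ hρ K M ks L v x b1 b2 hk hL hv p1 p2 its h key hkey
  obtain ⟨it, hit, rfl⟩ := List.mem_map.1 hkey
  have h1 := allL_iff.1 h it hit
  rw [cosB, force_eq] at h1
  obtain ⟨h2, h3⟩ := andB_iff.1 h1
  obtain ⟨g, hg, r⟩ := KC.mem_word (CG.comap ρ hρ) (K := K) hk it.1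
  refine ⟨g, hg, beq_iff.1 h2 ▸ KC.vp_act r hv, (orB_iff.1 h3).imp (fun e => ?_)
    (KC.cert (CG.comap ρ hρ) hL p1 p2 r)⟩
  rw [List.isEmpty_iff.1 e] at r
  exact (CG.comap ρ hρ).R_fun r (CG.comap ρ hρ).R_one

theorem pKO : KO.{u} := by
  intro G _ _ ρ hρ K M ks ki L u v t x b1 b2 hk hL hu hv p1 p2 its h key hkey
  obtain ⟨it, hit, rfl⟩ := List.mem_map.1 hkey
  have h1 := allL_iff.1 h it hit
  rw [orbB, force_eq] at h1
  obtain ⟨h2, h3⟩ := andB_iff.1 h1
  rcases orB_iff.1 h3 with e | e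
  · rw [List.isEmpty_iff.1 e] at h2
    refine ⟨1, one_mem _, ?_, Or.inl rfl⟩
    rw [one_mul, inv_one, mul_one, ← beq_iff.1 h2]
    exact KC.vp_act hu hv
  · obtain ⟨c, hc, r⟩ := KC.R_cjW (CG.comap ρ hρ) (K := K) hk it.1 (a := u) (t := t) hu
    exact ⟨c, hc, beq_iff.1 h2 ▸ KC.vp_act r hv, Or.inr (KC.cert (CG.comap ρ hρ) hL p1 p2 r e)⟩

end Cfsg.Agent.H97.JM
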