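import Cfsg.Agent.H25.UGDefs
import Cfsg.Agent.H91.SgE1
import Cfsg.Agent.H4.CoprimeAction

/-! Project UG, piece E1: the normal closure of the torus induces an automorphism on it. -/

set_option autoImplicit false

namespace Cfsg.Agent.H90.UgE1

open Cfsg.Agent.H77.Sg Module Cfsg.Agent.H25.UG
open Cfsg.Agent.H91.SgStr (gen_mem_SS Pt_le_SS)

universe u

theorem le_of_sylow {Γ : Type*} [Group Γ] [Finite Γ] {L H : Subgroup Γ}
    (h : ∀ (r : ℕ) [Fact r.Prime], r ∣ Nat.card L →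
      ∃ P : Sylow r L, (P : Subgroup L).map L.subtype ≤ H) : L ≤ H := by
  rw [← Subgroup.subgroupOf_eq_top, ← Subgroup.index_eq_one]
  by_contra ne
  have : Fact (H.subgroupOf L).index.minFac.Prime := ⟨Nat.minFac_prime ne⟩
  obtain ⟨P, hP⟩ := h _ ((Nat.minFac_dvd _).trans (H.subgroupOf L).index_dvd_card)
  exact P.not_dvd_index ((Nat.minFac_dvd _).trans
    (Subgroup.index_dvd_of_le (Subgroup.map_le_iff_le_comap.1 hP)))

theorem e1 (uc : H25.UG.UcStmt.{u}) (qs : QsStmt.{u}) : H25.UG.E1Stmt.{u} := by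
  intro E K _ _ _ _ _ σ B q R t G h
  have kt := H51.SgKit.kit E K (h.rk ▸ (by norm_num : Nat.Prime 7))
  obtain ⟨g, hg, ng⟩ := h.nn
  have : Finite (K ≃ₗ[E] K) := DFunLike.finite _
  have hall := (uc E K σ B q R t G h).1
  have PG : Pt E K t ≤ G := by
    rintro _ ⟨s, hs, rfl⟩
    exact (h.mem s).2 ⟨1, one_mem _, s, hs, (one_mul _).symm⟩
  have SG : SS G t ≤ G := (Subgroup.closure_le _).2 (by
    rintro _ ⟨g, hg, s, hs, rfl⟩
    exact mul_mem (mul_mem hg (PG hs)) (inv_mem hg))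
  have ns : ∀ s : Kˣ, s ^ t = 1 → s ≠ 1 → (s : K) ∉ E ∙ (1 : K) := fun s =>
    kt.ns s t (by rw [Nat.card_eq_fintype_card, h.st.card]; exact h.cop2)
  have nm : ∀ (k : K ≃ₗ[E] K) (s a : Kˣ), s ^ t = 1 → s ≠ 1 →
      k * mulH E K s * k⁻¹ = mulH E K a → Nm k := fun k s a hs s1 e =>
    kt.nm_of k s a (ns s hs s1) fun z =>
      congrArg (fun f : K ≃ₗ[E] K => f z) (mul_inv_eq_iff_eq_mul.1 e)
  by_contra! H
  have cP' : Nat.card ((Pt E K t).subgroupOf (SS G t)) = t := by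
    rw [Nat.card_congr (Subgroup.subgroupOfEquivOfLe Pt_le_SS).toEquiv, h.cardPt]
  have cop : t.Coprime ((Pt E K t).subgroupOf (SS G t)).index := hall.coprime_dvd_right
    (Dvd.intro _ (Subgroup.relIndex_mul_relIndex _ _ _ Pt_le_SS SG))
  obtain ⟨J, j1, j2, -⟩ := H91.SgE1.ncomp ((Pt E K t).subgroupOf (SS G t)) (by rwa [cP'])
    (by
      rintro ⟨_, hp⟩ ⟨s, hs, rfl⟩ ⟨k, hk⟩ ⟨a, -, e⟩
      by_cases s1 : s = 1
      · subst s1
        exact Subtype.ext (by simp)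
      · obtain ⟨b, rfl⟩ := H k⁻¹ (inv_mem hk) (nm _ s a hs s1 (by rw [inv_inv]; exact e.symm))
          |>.imp fun b (e : _ = k⁻¹) => (inv_eq_iff_eq_inv.1 e.symm)
        refine Subtype.ext ?_
        change (mulH E K b)⁻¹⁻¹ * mulH E K s * (mulH E K b)⁻¹ = mulH E K s
        rw [inv_inv, ← map_mul, mul_comm b, map_mul, mul_inv_cancel_right])
  generalize ((Pt E K t).subgroupOf (SS G t)).index = n at cop j1
  have mL : ∀ x, x ∈ J.map (SS G t).subtype ↔ x ∈ SS G t ∧ x ^ n = 1 := fun x =>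
    ⟨fun ⟨y, hy, e⟩ => e ▸ ⟨y.2, congrArg Subtype.val ((j1 y).1 hy)⟩,
      fun ⟨a, b⟩ => ⟨⟨x, a⟩, (j1 _).2 (Subtype.ext b), rfl⟩⟩
  have pl : t.minFac.Prime := Nat.minFac_prime (by have := h.t43; omega)
  have dl : t.minFac ∣ t := Nat.minFac_dvd t
  generalize t.minFac = l at pl dl
  have : Fact l.Prime := ⟨pl⟩
  obtain ⟨⟨s, hs⟩, os⟩ := exists_prime_orderOf_dvd_card' (G := Rt K t) l (by rwa [h.cardP])
  rw [← Subgroup.orderOf_coe] at os
  change orderOf s = l at os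
  have s1 : s ≠ 1 := fun e => pl.one_lt.ne (by rw [← os, e, orderOf_one])
  have sS : mulH E K s ∈ SS G t := Pt_le_SS (mem_Pt.2 ⟨s, hs, rfl⟩)
  have nl : ¬ l ∣ Nat.card (J.map (SS G t).subtype) := fun d => by
    obtain ⟨x, hx⟩ := exists_prime_orderOf_dvd_card' l d
    rw [← Subgroup.orderOf_coe] at hx
    exact pl.one_lt.ne' (Nat.eq_one_of_dvd_coprimes cop dl
      (hx ▸ orderOf_dvd_of_pow_eq_one ((mL _).1 x.2).2))
  have sc : J.map (SS G t).subtype ≤ (mulH E K).range := le_of_sylow fun r _ hr => by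
    obtain ⟨P, hP⟩ := H4.exists_invariant_sylow (A := Subgroup.zpowers (mulH E K s))
      (K := J.map (SS G t).subtype) (Subgroup.zpowers_le.2 (Subgroup.mem_normalizer_fintype
        fun x hx => (mL _).2 ⟨mul_mem (mul_mem sS ((mL x).1 hx).1) (inv_mem sS), by
          rw [conj_pow, ((mL x).1 hx).2, mul_one, mul_inv_cancel]⟩))
      (by
        rw [Nat.card_zpowers, orderOf_injective _ mulH_injective, os]
        exact pl.coprime_iff_not_dvd.2 nl) (.inl inferInstance) r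
    refine ⟨P, fun a ha => ?_⟩
    obtain ⟨c, hc⟩ := qs E K _ r l s h.rk Fact.out pl (h.pr29 l pl dl) (fun e => nl (e ▸ hr)) os
      (ns s hs s1) (P.isPGroup'.map _)
      (fun a ha => (Subgroup.mem_normalizer_iff.1 (hP (Subgroup.mem_zpowers _)) a).1 ha)
      (fun a ha e => by
        obtain ⟨a1, a2⟩ := (mL a).1 (Subgroup.map_subtype_le _ ha)
        obtain ⟨b, rfl⟩ := kt.cent a s (ns s hs s1) fun x =>
          congrArg (fun f : K ≃ₗ[E] K => f x) e.symm
        obtain ⟨z, hz, p, hp, rfl⟩ := (h.mem b).1 (SG a1)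
        have e1 : (z * p) ^ n = 1 := mulH_injective (by rw [map_pow, a2, map_one])
        have e2 : p ^ (n * (q + 1)) = 1 := by
          have := congrArg (· ^ (q + 1)) e1
          simp only [mul_pow, one_pow, ← pow_mul] at this
          rwa [mul_comm n, pow_mul z, show z ^ (q + 1) = 1 from hz, one_pow, one_mul,
            mul_comm _ n] at this
        have e3 : p = 1 := orderOf_eq_one_iff.1 (Nat.eq_one_of_dvd_coprimes (cop.mul_right h.cop1)
          (orderOf_dvd_of_pow_eq_one hp) (orderOf_dvd_of_pow_eq_one e2))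
        obtain ⟨c, -, ec⟩ := h.zE z hz
        exact ⟨c, fun x => by rw [e3, mul_one, mulH_apply, ec, Algebra.smul_def]⟩) a ha
    exact H a ((mL a).1 (Subgroup.map_subtype_le _ ha)).1
      fun b => ⟨b, fun x => by rw [hc, hc, mul_smul_comm]⟩
  obtain ⟨j, hj, ⟨_, hp⟩, ⟨b, -, rfl⟩, e⟩ := j2 ⟨_, gen_mem_SS hg (mem_Pt.2 ⟨s, hs, rfl⟩)⟩
  obtain ⟨a, ha⟩ := sc ⟨j, hj, rfl⟩
  exact ng (nm g s (a * b) hs s1 (by rw [map_mul, ha]; exact congrArg Subtype.val e))

end Cfsg.Agent.H90.UgE1
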