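import Cfsg.Agent.H90.F3
import Cfsg.Agent.H37.TE8
import Cfsg.Agent.H37.Autos

/-! The root elements of `E₈(3)` as coded matrices. -/

set_option autoImplicit false
set_option maxRecDepth 100000

namespace Cfsg.Agent.H90.E8

open Cfsg.Lie Cfsg.Agent.H44 Cfsg.Agent.H90.F3 Matrix
open Cfsg.Agent.H37 (TL appX bV corE8 rowsE8 validE8)

/-- Add two coded matrices. -/
noncomputable def add3 (p m P S : ℕ) (k : ℕ → ℕ → Bool) : Bool :=
  (fun u => k (Nat.xor (Nat.lor m S) u) (Nat.xor (Nat.lor p P) u)) (Nat.xor (Nat.lor p S) (Nat.lor m P))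

theorem add_bits : ∀ p m P S : Bool, (p && m) = false → (P && S) = false →
    (((m || S) ^^ ((p || S) ^^ (m || P))) && ((p || P) ^^ ((p || S) ^^ (m || P)))) = false ∧
      sv ((m || S) ^^ ((p || S) ^^ (m || P))) ((p || P) ^^ ((p || S) ^^ (m || P))) =
        sv p m + sv P S := by decide

theorem add3_spec {N p m P S : ℕ} (h : Can N p m) (h1 : Can N P S) :
    ∃ p' m', (∀ k, add3 p m P S k = k p' m') ∧ Can N p' m' ∧
      ∀ i, val p' m' i = val p m i + val P S i := by
  have u := Nat.xor_lt_two_pow (Nat.or_lt_two_pow h.hp h1.hm) (Nat.or_lt_two_pow h.hm h1.hp)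
  refine ⟨(m ||| S) ^^^ ((p ||| S) ^^^ (m ||| P)), (p ||| P) ^^^ ((p ||| S) ^^^ (m ||| P)),
    fun _ => rfl, ⟨Nat.xor_lt_two_pow (Nat.or_lt_two_pow h.hm h1.hm) u,
    Nat.xor_lt_two_pow (Nat.or_lt_two_pow h.hp h1.hp) u, fun i => ?_⟩, fun i => ?_⟩
  · simpa only [Nat.testBit_xor, Nat.testBit_or] using (add_bits _ _ _ _ (h.dis i) (h1.dis i)).1
  · simpa only [val, Nat.testBit_xor, Nat.testBit_or] using (add_bits _ _ _ _ (h.dis i) (h1.dis i)).2

/-- The row `j` moved to the row `w`. -/
noncomputable def mov (sm x j w : ℕ) : ℕ := Nat.shiftLeft (Nat.land (Nat.shiftRight x j) sm) w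

theorem testBit_mov (x j w l : ℕ) : (mov (strd 248 248) x j w).testBit l =
    (decide (w ≤ l ∧ (l - w) % 248 = 0 ∧ (l - w) / 248 < 248) && x.testBit (j + (l - w))) := by
  show ((x >>> j &&& strd 248 248) <<< w).testBit l = _
  rw [Nat.testBit_shiftLeft, Nat.testBit_and, Nat.testBit_shiftRight, testBit_strd (by norm_num),
    Bool.and_comm (x.testBit _), ← Bool.and_assoc, Bool.decide_and (w ≤ l)]

theorem mov_spec {x y j w : ℕ} (h : ∀ l, (x.testBit l && y.testBit l) = false) (hw : w < 248) :
    Can (248 * 248) (mov (strd 248 248) x j w) (mov (strd 248 248) y j w) ∧ ∀ i j' : Fin 248,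
      val (mov (strd 248 248) x j w) (mov (strd 248 248) y j w) (248 * j' + i) =
        if i.val = w then val x y (248 * j' + j) else 0 := by
  have k : ∀ x, mov (strd 248 248) x j w < 2 ^ (248 * 248) := fun x =>
    Nat.lt_pow_two_of_testBit _ fun l hl => by rw [testBit_mov, decide_eq_false (by omega)]; rfl
  refine ⟨⟨k x, k y, fun l => ?_⟩, fun i j' => ?_⟩
  · rw [testBit_mov, testBit_mov, Bool.and_comm _ (x.testBit _), Bool.and_assoc, ← Bool.and_assoc _ _
      (y.testBit _), Bool.and_self, Bool.and_left_comm, h, Bool.and_false]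
  · have := i.2
    have := j'.2
    rw [val, testBit_mov, testBit_mov]
    split_ifs with e
    · rw [decide_eq_true (by omega), show j + (248 * j' + i - w) = 248 * j' + j by omega]; rfl
    · rw [decide_eq_false (by omega)]; rfl

theorem val_swap {x y : ℕ} (h : ∀ l, (x.testBit l && y.testBit l) = false) (l : ℕ) :
    val y x l = - val x y l := by
  have := h l
  rw [val, val]
  revert this
  cases x.testBit l <;> cases y.testBit l <;> decide

/-- Add multiples of the row `j`. -/
noncomputable def addT (sm x y j : ℕ) (L : TL) : ℕ → ℕ → (ℕ → ℕ → Bool) → Bool :=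
  TL.rec (motive := fun _ => ℕ → ℕ → (ℕ → ℕ → Bool) → Bool) (fun p m k => k p m)
    (fun w _ c _ ih p m k => Bool.rec (ih p m k) (Nat.rec (ih p m k) (fun c _ => Nat.rec
      (add3 p m (mov sm x j w) (mov sm y j w) fun p m => ih p m k)
      (fun _ _ => add3 p m (mov sm y j w) (mov sm x j w) fun p m => ih p m k) c)
      (Int.toNat (Int.emod c 3))) (Nat.blt w 248)) L

/-- The numbering of the basis. -/
def idx : chevE8.Idx ≃ Fin 248 := finSumFinEquiv (m := 8) (n := 240)

theorem bV_idx (w : ℕ) (i : Fin 248) :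
    bV chevE8 (ZMod 3) w (idx.symm i) = if i.val = w then 1 else 0 := by
  obtain ⟨a, rfl⟩ := idx.surjective i
  have : chevE8.rank = 8 := rfl
  rw [Equiv.symm_apply_apply, bV]
  rcases a with a | a
  · have := a.2
    show _ = if a.val = w then 1 else 0
    split_ifs <;> simp_all [H37.hV, H37.eV]
  · show _ = if 8 + a.val = w then 1 else 0
    split_ifs <;> simp_all [H37.hV, H37.eV] <;> omega

theorem addT_spec {x y : ℕ} (hx : ∀ l, (x.testBit l && y.testBit l) = false) (j : ℕ) (L : TL) :
    ∀ {p m}, Can (248 * 248) p m → ∃ p' m', (∀ k, addT (strd 248 248) x y j L p m k = k p' m') ∧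
      Can (248 * 248) p' m' ∧ ∀ i j' : Fin 248, val p' m' (248 * j' + i) = val p m (248 * j' + i) +
        H37.ev chevE8 1 L (idx.symm i) * val x y (248 * j' + j) := by
  induction L with
  | nil => exact fun h => ⟨_, _, fun _ => rfl, h, by simp⟩
  | cons w n c L ih =>
    intro p m h
    suffices ∃ p1 m1, (∀ k, addT (strd 248 248) x y j (.cons w n c L) p m k =
        addT (strd 248 248) x y j L p1 m1 k) ∧ Can (248 * 248) p1 m1 ∧ ∀ i j' : Fin 248,
        val p1 m1 (248 * j' + i) = val p m (248 * j' + i) +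
          if i.val = w then c * val x y (248 * j' + j) else 0 by
      obtain ⟨p1, m1, h1, h2, h3⟩ := this
      obtain ⟨p', m', h4, h5, h6⟩ := ih h2
      refine ⟨p', m', fun k => (h1 k).trans (h4 k), h5, fun i j' => ?_⟩
      rw [h6, h3, H37.ev_cons, Pi.add_apply, Pi.smul_apply, bV_idx]
      split_ifs <;> simp [add_mul, add_assoc]
    have e : ∀ k, addT (strd 248 248) x y j (.cons w n c L) p m k =
      Bool.rec (addT (strd 248 248) x y j L p m k) (Nat.rec (addT (strd 248 248) x y j L p m k)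
      (fun c _ => Nat.rec (add3 p m (mov (strd 248 248) x j w) (mov (strd 248 248) y j w)
        fun p m => addT (strd 248 248) x y j L p m k)
      (fun _ _ => add3 p m (mov (strd 248 248) y j w) (mov (strd 248 248) x j w)
        fun p m => addT (strd 248 248) x y j L p m k) c) (c % 3).toNat) (Nat.blt w 248) := fun _ => rfl
    cases hw : Nat.blt w 248
    · refine ⟨p, m, fun k => by rw [e, hw], h, fun i j' => ?_⟩
      rw [if_neg, add_zero]
      intro e
      rw [← e, Nat.blt_eq.mpr i.2] at hw; exact Bool.noConfusion hw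
    have hw' := Nat.blt_eq.mp hw
    rw [← ZMod.intCast_mod c 3]
    have a := Int.emod_nonneg c (b := 3) (by norm_num)
    have b := Int.emod_lt_of_pos c (b := 3) (by norm_num)
    simp only [hw] at e
    change ∃ p1 m1, _ ∧ _ ∧ ∀ i j' : Fin 248, _ = _ + ite _ (((c % 3 : ℤ) : ZMod 3) * _) _
    generalize c % 3 = d at a b e
    interval_cases d
    · exact ⟨p, m, e, h, by simp⟩
    · obtain ⟨h0, h1⟩ := mov_spec (j := j) hx hw'
      obtain ⟨p1, m1, h2, h3, h4⟩ := add3_spec h h0
      exact ⟨p1, m1, fun k => (e k).trans (h2 _), h3, fun i j' => by rw [h4, h1]; simp⟩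
    · obtain ⟨h0, h1⟩ := mov_spec (j := j) (fun l => (Bool.and_comm _ _).trans (hx l)) hw'
      obtain ⟨p1, m1, h2, h3, h4⟩ := add3_spec h h0
      exact ⟨p1, m1, fun k => (e k).trans (h2 _), h3, fun i j' => by
        rw [h4, h1, val_swap hx, neg_eq_neg_one_mul]; rfl⟩

/-- The tail of a list of terms. -/
noncomputable def tl (L : TL) : TL := TL.rec .nil (fun _ _ _ t _ => t) L

/-- Multiplication by a root element. -/
noncomputable def cols (sm x y row cor r : ℕ) (c : ℤ) (j : ℕ) : (ℕ → ℕ → Bool) → Bool :=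
  Nat.rec (motive := fun _ => (ℕ → ℕ → Bool) → Bool) (fun k => k x y)
    (fun j ih k => ih fun p m => addT sm x y j (tl
      (appX 8 (fun _ w => H37.tabG row 12 4096 w) (fun _ => cor) r c 1 (.cons j 1 1 .nil))) p m k) j

theorem cols_spec {x y r : ℕ} (hx : Can (248 * 248) x y) (hr : r < 240) (c : ℤ) {j : ℕ} (hj : j ≤ 248) :
    ∃ p m, (∀ k, cols (strd 248 248) x y (H37.nthN rowsE8 r) (corE8 r) r c j k = k p m) ∧
      Can (248 * 248) p m ∧ ∀ i j' : Fin 248, val p m (248 * j' + i) = val x y (248 * j' + i) +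
        ∑ s : Fin 248, if s.val < j then (chevE8.x (ZMod 3) r c (idx.symm i) (idx.symm s) -
          if i = s then 1 else 0) * val x y (248 * j' + s) else 0 := by
  induction j with
  | zero => exact ⟨x, y, fun _ => rfl, hx, by simp⟩
  | succ j ih =>
    obtain ⟨p, m, h1, h2, h3⟩ := ih (by omega)
    obtain ⟨p', m', h4, h5, h6⟩ := addT_spec hx.dis j
      (tl (appX chevE8.rank validE8.code validE8.cor r c 1 (.cons j 1 1 .nil))) h2
    refine ⟨p', m', fun k => (h1 _).trans (h4 k), h5, fun i j' => ?_⟩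
    have e := congrFun (H37.ev_appX (F := ZMod 3) validE8.basic validE8.link.fast 1 hr c 1
      (.cons j 1 1 .nil)) (idx.symm i)
    rw [show appX chevE8.rank validE8.code validE8.cor r c 1 (.cons j 1 1 .nil) = .cons j 1 1
      (tl (appX chevE8.rank validE8.code validE8.cor r c 1 (.cons j 1 1 .nil))) from rfl, H37.ev_cons,
      Pi.add_apply, ← eq_sub_iff_add_eq', mulVec, dotProduct, ← idx.symm.sum_comp] at e
    rw [h6, h3, e, add_assoc, add_right_inj, eq_comm, ← sub_eq_iff_eq_add', ← Finset.sum_sub_distrib,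
      Finset.sum_eq_single ⟨j, hj⟩ (fun s _ hs => by
        have : s.val ≠ j := fun e => hs (Fin.ext e)
        simp only [show s.val < j + 1 ↔ s.val < j by omega, sub_self]) (by simp),
      Finset.sum_eq_single ⟨j, hj⟩ (fun s _ hs => by
        have : s.val ≠ j := fun e => hs (Fin.ext e)
        simp [bV_idx, this]) (by simp)]
    simp [bV_idx, Fin.ext_iff]

/-- The root of a letter. -/
def rt (x : ℕ) : ℕ := Nat.div (Nat.sub x 1) 2

/-- The parameter of a letter. -/
noncomputable def par (x : ℕ) : ℤ := Nat.rec (Int.negSucc 0) (fun _ _ => Int.ofNat 1) (Nat.mod x 2)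

/-- The matrices in the numbered basis. -/
noncomputable def ι : chevE8.group (ZMod 3) →* GL (Fin 248) (ZMod 3) :=
  (Units.map (reindexAlgEquiv (ZMod 3) (ZMod 3) idx).toMonoidHom).comp (Subgroup.subtype _)

theorem ι_inj : Function.Injective ι :=
  (Units.map_injective (reindexAlgEquiv (ZMod 3) (ZMod 3) idx).injective).comp Subtype.val_injective

/-- The root element of a letter. -/
noncomputable def xL (x : ℕ) : chevE8.group (ZMod 3) := validE8.xE (ZMod 3) (rt x) (par x)

/-- The value of a word. -/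
noncomputable def evX (sm x y : ℕ) (l : List ℕ) : (ℕ → ℕ → Bool) → Bool :=
  List.rec (motive := fun _ => (ℕ → ℕ → Bool) → Bool) (fun k => k x y)
    (fun a _ ih k => ih fun p m => frc (rt a) fun r => frc (H37.nthN rowsE8 r) fun row =>
      frc (corE8 r) fun cor => cols sm p m row cor r (par a) 248 fun p m =>
        frc p fun p => frc m fun m => k p m) l

theorem evX_spec (l : List ℕ) (hl : lettersIn 480 l = true) : ∃ p m,
    (∀ k, evX (strd 248 248) (strd 249 248) 0 l k = k p m) ∧ Rep 248 248 p m (ι (ev xL l)).val := by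
  induction l with
  | nil => exact ⟨_, _, fun _ => rfl, by simpa [ev_nil] using rep_one 248⟩
  | cons a l ih =>
    rw [lettersIn, List.all_cons, Bool.and_eq_true, decide_eq_true_eq] at hl
    obtain ⟨x, y, h1, h2, h3⟩ := ih hl.2
    obtain ⟨p, m, h4, h5, h6⟩ := cols_spec (r := rt a) h2 (by
      show (a - 1) / 2 < 240; omega) (par a) le_rfl
    refine ⟨p, m, fun k => (h1 _).trans (h4 _), h5, Matrix.ext fun i j => (h6 i j).trans ?_⟩
    rw [ev_cons, map_mul, Units.val_mul, ← h3, mul_apply, ← validE8.coe_xG]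
    simp only [Fin.is_lt, if_true, sub_mul, Finset.sum_sub_distrib, ite_mul, one_mul, zero_mul,
      Finset.sum_ite_eq, Finset.mem_univ, add_sub_cancel]
    rfl

/-- The word has the given planes. -/
noncomputable def valX (l : List ℕ) (p m : ℕ) : Bool :=
  lettersIn 480 l && frc (strd 248 248) fun sm => frc (strd 249 248) fun x => evX sm x 0 l (same p m)

theorem rep_of_valX {l : List ℕ} {p m : ℕ} (h : valX l p m = true) :
    Rep 248 248 p m (ι (ev xL l)).val := by
  obtain ⟨h1, h2⟩ := Bool.and_eq_true_iff.1 h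
  obtain ⟨p', m', h3, h4⟩ := evX_spec l h1
  obtain ⟨rfl, rfl⟩ := same_iff.1 ((h3 _).symm.trans h2)
  exact h4

end Cfsg.Agent.H90.E8
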