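import Mathlib
import Cfsg.Agent.H62.EVCongr
import Cfsg.Agent.H75.KInvDefs
import Cfsg.Agent.H46.Cls2

/-!
# An involution whose centraliser is a four-group times a simple group
-/

set_option autoImplicit false

namespace Cfsg.Agent.H90.Ev

open Cfsg Subgroup Cfsg.Agent.H62.EV Cfsg.Agent.H75.KI Cfsg.Agent.H52

variable {G : Type*} [Group G]

theorem fixed_conj (s : G) : fixedSubgroup (MulAut.conj s) = centralizer ({s} : Set G) := by
  ext y
  rw [mem_fixed, mem_centralizer_singleton_iff, MulAut.conj_apply, mul_inv_eq_iff_eq_mul, eq_comm]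

theorem no_comp [Finite G] {C L : Subgroup G} (h : IsOfCharacteristicTwo C) :
    ¬ IsComponentOf L C := fun hL =>
  layer_eq_bot_iff.1 (layer_eq_bot_of_charTwo h) _ hL.2

/-- A central element of the derived subgroup has its transfer in the derived subgroup. -/
theorem pow_mem_comm [Finite G] (H : Subgroup G) {z : G} (hz : ∀ g, g * z = z * g)
    (hc : z ∈ commutator G) : z ^ H.index ∈ ⁅H, H⁆ := by
  have h1 := MonoidHom.transfer_eq_pow (Abelianization.of (G := H)) z fun k g _ => by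
    rw [mul_assoc, ← (Commute.pow_right (hz g) k).eq, inv_mul_cancel_left]
  rw [show MonoidHom.transfer (Abelianization.of (G := H)) z = 1 from
    Abelianization.commutator_subset_ker _ hc, eq_comm, ← MonoidHom.mem_ker,
    Abelianization.ker_of] at h1
  rw [← map_subtype_commutator]
  exact ⟨_, h1, rfl⟩

/-- The data in the centraliser of `s`. -/
structure Dat (s x : G) (E U P L₀ : Subgroup G) : Prop where
  good : Good (centralizer ({s} : Set G))
  sE : s ∈ E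
  cen : ∀ e ∈ E, ∀ c ∈ centralizer ({s} : Set G), c * e = e * c
  sq : ∀ e ∈ E, e * e = 1
  le : P ≤ centralizer ({s} : Set G)
  odd : ¬ 2 ∣ P.relIndex (centralizer ({s} : Set G))
  EP : E ≤ P
  dec : ∀ y ∈ P, ∃ e ∈ E, ∃ u ∈ U, y = e * u
  UL : U ≤ L₀
  LC : L₀ ≤ centralizer ({s} : Set G)
  perf : ⁅L₀, L₀⁆ = L₀
  xL : x ∈ L₀
  fre : ∀ u ∈ U, u * x = x * u → u = 1
  fus : ∀ u ∈ U, u * u = 1 → IsConj s (s * u)

variable [Finite G] {s x : G} {E U P L₀ L : Subgroup G}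

theorem core_of_good {C L : Subgroup G} (h : Good C) (hL : IsComponentOf L C) :
    L.subgroupOf C = layer C ∧ ∀ Q ≤ C, ⁅Q, Q⁆ = Q → Q ≤ L := by
  have h1 := (h.resolve_left fun e => no_comp e hL).lay
  have h2 : L.subgroupOf C = layer C := le_antisymm (IsComponent.le_layer hL.2)
    (layer_le_iff.2 fun K hK => ((Set.ncard_le_one (Set.toFinite _)).1 h1.ncomp K hK _ hL.2).le)
  exact ⟨h2, fun Q hQ e y hy => (h2 ▸ h1.perf _ (perfect_subgroupOf e hQ) :
    Q.subgroupOf C ≤ L.subgroupOf C) (x := ⟨y, hQ hy⟩) hy⟩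

namespace Dat

variable (h : Dat s x E U P L₀) (hL : IsComponentOf L (centralizer ({s} : Set G)))
include h

theorem conj_in {z : G} (hz : z ∈ centralizer ({s} : Set G)) {k : ℕ} (e : z ^ 2 ^ k = 1) :
    ∃ g ∈ centralizer ({s} : Set G), g * z * g⁻¹ ∈ P := by
  have := Fact.mk Nat.prime_two
  obtain ⟨g, hg⟩ := H46.exists_conj_mem_of_index (P.subgroupOf _) h.odd (x := ⟨z, hz⟩) (k := k)
    (Subtype.ext e)
  exact ⟨g, g.2, hg⟩

include hL

theorem L0_le : L₀ ≤ L := (core_of_good h.good hL).2 _ h.LC h.perf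

theorem nrm {g : G} (hg : g ∈ centralizer ({s} : Set G)) {y : G} (hy : y ∈ L) : g * y * g⁻¹ ∈ L := by
  have : (L.subgroupOf (centralizer ({s} : Set G))).Normal :=
    (core_of_good h.good hL).1 ▸ layer_normal
  exact this.conj_mem ⟨y, hL.1 hy⟩ hy ⟨g, hg⟩

theorem mem_E {z : G} (hz : z ∈ centralizer ({s} : Set G)) {k : ℕ} (e : z ^ 2 ^ k = 1)
    (hc : ∀ y ∈ L, z * y = y * z) : z ∈ E := by
  obtain ⟨g, hg, h1⟩ := h.conj_in hz e
  obtain ⟨a, ha, u, hu, h2⟩ := h.dec _ h1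
  have h3 := hc _ (h.nrm hL (inv_mem hg) (h.L0_le hL h.xL))
  have h4 : a * u * x = x * (a * u) := by
    rw [← h2]
    calc g * z * g⁻¹ * x = g * (z * (g⁻¹ * x * g⁻¹⁻¹)) * g⁻¹ := by group
      _ = x * (g * z * g⁻¹) := by rw [h3]; group
  rw [← mul_assoc, h.cen a ha x (h.LC h.xL), mul_assoc, mul_assoc, mul_right_inj] at h4
  rw [h.fre u hu h4, mul_one, mul_inv_eq_iff_eq_mul, ← h.cen a ha g hg, mul_right_inj] at h2
  rwa [h2]

theorem inf_bot {z : G} (hz : z ∈ E) (hz' : z ∈ L) : z = 1 := by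
  have h1 := pow_mem_comm (P.subgroupOf (centralizer ({s} : Set G))) (z := ⟨z, hL.1 hz'⟩)
    (fun g => Subtype.ext (h.cen z hz g g.2))
    (commutator_mono le_top le_top ((IsComponent.commutator_self hL.2).ge hz'))
  have h2 : ⁅P.subgroupOf (centralizer ({s} : Set G)), P.subgroupOf (centralizer ({s} : Set G))⁆ ≤
      U.subgroupOf _ := commutator_le.2 fun a ha b hb => by
    obtain ⟨c, hc, u, hu, e1⟩ := h.dec _ ha
    obtain ⟨d, hd, v, hv, e2⟩ := h.dec _ hb
    have h3 := h.cen c hc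
    have h4 := h.cen d hd
    have u1 := h.LC (h.UL hu)
    have v1 := h.LC (h.UL hv)
    have : (a : G) * b * (a : G)⁻¹ * (b : G)⁻¹ = u * v * u⁻¹ * v⁻¹ := by
      calc (a : G) * b * (a : G)⁻¹ * (b : G)⁻¹ = c * (u * b * u⁻¹) * c⁻¹ * (b : G)⁻¹ := by
            rw [show (a : G) = c * u from e1]; group
        _ = u * (d * (v * u⁻¹ * v⁻¹) * d⁻¹) := by
            rw [← h3 _ (mul_mem (mul_mem u1 b.2) (inv_mem u1)), show (b : G) = d * v from e2]; group
        _ = _ := by rw [← h4 _ (mul_mem (mul_mem v1 (inv_mem u1)) (inv_mem v1))]; group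
    exact mem_subgroupOf.2 (this.symm ▸ mul_mem (mul_mem (mul_mem hu hv) (inv_mem hu)) (inv_mem hv) :
      (a : G) * b * (a : G)⁻¹ * (b : G)⁻¹ ∈ U)
  have h3 : z ^ P.relIndex (centralizer ({s} : Set G)) ∈ U := h2 h1
  obtain ⟨m, hm⟩ := Nat.odd_iff.2 (Nat.two_dvd_ne_zero.1 h.odd)
  rw [hm, pow_succ, pow_mul, pow_two, h.sq z hz, one_pow, one_mul] at h3
  exact h.fre z h3 (h.cen z hz x (h.LC h.xL)).symm

theorem center_bot (h2 : IsPGroup 2 (center L)) : center L = ⊥ := eq_bot_iff.2 fun z hz => by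
  obtain ⟨k, hk⟩ := h2 ⟨z, hz⟩
  exact Subtype.ext (h.inf_bot hL (h.mem_E hL (hL.1 z.2) (k := k)
    (congrArg (fun y : center L => ((y : L) : G)) hk)
    fun y hy => (congrArg Subtype.val (mem_center_iff.1 hz ⟨y, hy⟩)).symm) z.2)

theorem kf : KF (MulAut.conj s) L := fun a ha => by
  have a2 : (a : G) * a = 1 := by
    have := pow_orderOf_eq_one a
    rw [ha.1, pow_two] at this
    exact congrArg Subtype.val this
  obtain ⟨g, hg, h1⟩ := h.conj_in (hL.1 a.2) (k := 1) (by rw [pow_one, pow_two, a2])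
  obtain ⟨c, hc, u, hu, h2⟩ := h.dec _ h1
  obtain rfl : c = 1 := h.inf_bot hL hc (by
    rw [show c = g * a * g⁻¹ * u⁻¹ by rw [h2, mul_inv_cancel_right]]
    exact mul_mem (h.nrm hL hg a.2) (inv_mem (h.L0_le hL (h.UL hu))))
  rw [one_mul] at h2
  obtain ⟨d, hd⟩ := isConj_iff.1 (h.fus u hu (by rw [← h2, conj_mul, a2]; simp))
  have h3 := mem_centralizer_singleton_iff.1 hg
  have h4 := mem_centralizer_singleton_iff.1 (hL.1 a.2)
  refine ⟨d⁻¹ * g, ?_⟩
  calc (MulAut.conj s (d⁻¹ * g))⁻¹ * (d⁻¹ * g) = s * g⁻¹ * (d * s * d⁻¹)⁻¹ * g := by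
        rw [MulAut.conj_apply]; group
    _ = s * (a : G)⁻¹ * ((s * g)⁻¹ * g) := by rw [hd, ← h2]; group
    _ = (s * a * s⁻¹)⁻¹ := by rw [← h3]; group
    _ = a := by rw [← h4, mul_inv_cancel_right, inv_eq_of_mul_eq_one_right a2]

variable (hi : Function.Bijective (MulAut.conj : G →* MulAut G))
include hi

omit [Finite G] h hL in
theorem _root_.Cfsg.Agent.H90.Ev.conj_mem_YY {g : G} (hg : MulAut.conj g ∈ YY (MulAut.conj s) L) :
    g ∈ centralizer ({s} : Set G) ∧ ∀ y ∈ L, g * y = y * g := by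
  obtain ⟨h1, h2⟩ := mem_YY.1 hg
  rw [← map_mul, ← map_mul] at h1
  exact ⟨mem_centralizer_singleton_iff.2 (hi.1 h1), fun y hy => mul_inv_eq_iff_eq_mul.1 (h2 y hy)⟩

theorem yy {β : MulAut G} (hβ : β ∈ YY (MulAut.conj s) L) {k : ℕ} (e : β ^ 2 ^ k = 1) :
    ∃ g ∈ E, MulAut.conj g = β := by
  obtain ⟨g, rfl⟩ := hi.2 β
  obtain ⟨h1, h2⟩ := conj_mem_YY hi hβ
  exact ⟨g, h.mem_E hL h1 (k := k) (hi.1 (by rw [map_pow, e, map_one])) h2, rfl⟩

theorem ey : EY (MulAut.conj s) L := fun β hβ e => by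
  obtain ⟨g, hg, rfl⟩ := h.yy hL hi hβ (k := 2) e
  rw [pow_two, ← map_mul, h.sq g hg, map_one]

theorem ky' (hc : ∀ g ∈ E, g ≠ 1 → centralizer ({g} : Set G) ≤ centralizer ({s} : Set G)) :
    KY' (MulAut.conj s) L := fun β hβ e Q hQ hp => by
  obtain ⟨g, hg, rfl⟩ := h.yy hL hi hβ (k := 1) (by rw [pow_one, ← e, pow_orderOf_eq_one])
  rw [fixed_conj] at hQ
  exact (core_of_good h.good hL).2 Q (hQ.trans (hc g hg (by rintro rfl; simp at e))) hp

theorem k2 (h4 : Nat.card E ≤ 4) (h3 : ¬ 3 ∣ Nat.card (centralizer ({s} : Set G)))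
    (h9 : ¬ PRankLE 3 1 G) : K2 (MulAut.conj s) L := by
  refine Or.inr ⟨fun A _ hA => ?_, fun e => h3 (e.trans ?_), h9⟩
  · rw [← card_map_of_injective (YY (MulAut.conj s) L).subtype_injective]
    refine le_trans (card_le_of_le (K := E.map MulAut.conj) ?_) ?_
    · rintro _ ⟨a, ha, rfl⟩
      exact h.yy hL hi a.2 (k := 1) (congrArg Subtype.val (hA a ha))
    · rwa [card_map_of_injective hi.1]
  · rw [← card_map_of_injective hi.1]
    refine card_dvd_of_le fun β hβ => ?_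
    obtain ⟨g, rfl⟩ := hi.2 β
    exact ⟨g, (conj_mem_YY hi hβ).1, rfl⟩

end Dat

omit [Finite G] in
theorem reps (hi : Function.Bijective (MulAut.conj : G →* MulAut G)) {a b : G}
    (h : ∀ t : G, orderOf t = 2 → IsConj a t ∨ IsConj b t) (α : MulAut G) (hα : orderOf α = 2) :
    ∃ ρ ∈ ({MulAut.conj a, MulAut.conj b} : Set (MulAut G)), IsConj ρ α := by
  obtain ⟨g, rfl⟩ := hi.2 α
  rw [orderOf_injective _ hi.1] at hα
  rcases h g hα with e | e
  exacts [⟨_, Or.inl rfl, MonoidHom.map_isConj _ e⟩, ⟨_, Or.inr rfl, MonoidHom.map_isConj _ e⟩]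

omit [Finite G] in
theorem conj_bijective [IsSimpleGroup G] (hn : ¬ IsMulCommutative G) (h : Nat.card (Out G) = 1) :
    Function.Bijective (MulAut.conj : G →* MulAut G) := by
  refine ⟨(injective_iff_map_eq_one _).2 fun g hg => ?_, MonoidHom.range_eq_top.1 (index_eq_one.1 h)⟩
  have : center G = ⊥ := (IsSimpleGroup.eq_bot_or_eq_top_of_normal _ inferInstance).resolve_right
    fun e => hn ⟨⟨fun a b => mem_center_iff.1 (e.ge (mem_top b)) a⟩⟩
  exact mem_bot.1 (this.le (mem_center_iff.2 fun y =>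
    (mul_inv_eq_iff_eq_mul.1 (DFunLike.congr_fun hg y)).symm))

end Cfsg.Agent.H90.Ev
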