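import Cfsg.Agent.H97.JnDefs

/-!
# A subgroup of order `163680` with the given local structure is maximal
-/

set_option autoImplicit false

namespace Cfsg.Agent.H97.JM

open Subgroup
open scoped Pointwise

universe u

namespace QL

def t1 (n : ℕ) : Bool :=
  n % 163680 != 0 || n / 163680 % 31 != 1 || !ok n || n == 86775571046077562880 ||
    (n % 29 != 0 || n % 37 != 0) &&
      (n / 163680 % 5 != 1 || [1, 2016, 16896].any fun k => n == 163680 * k)

theorem a1 : allD t1 = true := by decide +kernel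

theorem a2 : ∀ k ∈ [2016, 16896], ∀ j ≤ 968, 330 * j ∣ 319440 → 330 * j ∣ 163680 * k →
    163680 * k / (330 * j) % 11 ≠ 1 := by decide +kernel

variable {G : Type u} [Group G] [Finite G]

omit [Finite G] in
theorem ti [Fact (Nat.Prime 11)] (C : Ctx G) {U : Sylow 11 G} {x n : G} (x1 : x ≠ 1)
    (xU : x ∈ (U : Subgroup G)) (h : n * x * n⁻¹ ∈ (U : Subgroup G)) :
    n ∈ normalizer ((U : Subgroup G) : Set G) := by
  refine Sylow.smul_eq_iff_mem_normalizer.1 (C.ti U (n • U) fun e => x1 ?_).symm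
  have m : n * x * n⁻¹ ∈ (U : Subgroup G) ⊓ (n • U : Sylow 11 G) :=
    ⟨h, (smul_mem_pointwise_smul x (MulAut.conj n) (U : Subgroup G) xU :)⟩
  rw [e, mem_bot] at m
  simpa using m

theorem eleven (C : Ctx G) {H : Subgroup G} {x : G} (xH : x ∈ H) (ox : orderOf x = 11) :
    ∃ m, m ∣ 319440 ∧ m ∣ Nat.card H ∧ Nat.card H / m % 11 = 1 ∧
      Nat.card ↥(H ⊓ normalizer ((zpowers x : Subgroup G) : Set G)) ∣ m := by
  have : Fact (Nat.Prime 11) := ⟨by norm_num⟩
  have x1 : x ≠ 1 := fun e => by rw [e, orderOf_one] at ox; omega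
  obtain ⟨P, hP⟩ := (IsPGroup.of_card (p := 11) (G := zpowers (⟨x, xH⟩ : H)) (n := 1)
    (by rw [Nat.card_zpowers, ← orderOf_coe, ox]; rfl)).exists_le_sylow
  have xP : (⟨x, xH⟩ : H) ∈ (P : Subgroup H) := hP (mem_zpowers _)
  obtain ⟨U, hU⟩ := (P.2.map H.subtype).exists_le_sylow
  have e : (U : Subgroup G).subgroupOf H = P :=
    P.3 (U.2.comap_of_injective H.subtype H.subtype_injective) (map_le_iff_le_comap.1 hU)
  have xU : x ∈ (U : Subgroup G) := hU ⟨_, xP, rfl⟩
  have eN : normalizer (P : Set H) = (normalizer ((U : Subgroup G) : Set G)).subgroupOf H := by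
    refine le_antisymm (fun n hn => ti C x1 xU (hU ⟨_, (mem_set_normalizer_iff.1 hn _).1 xP, rfl⟩))
      fun n hn => ?_
    rw [← Sylow.coe_coe, ← e]
    exact mem_normalizer_iff.2 fun y => mem_normalizer_iff.1 hn y
  have cN : Nat.card (normalizer (P : Set H)) =
      Nat.card ↥(H ⊓ normalizer ((U : Subgroup G) : Set G)) := by
    rw [eN, ← inf_subgroupOf_left]
    exact Nat.card_congr (subgroupOfEquivOfLe inf_le_left).toEquiv
  refine ⟨Nat.card (normalizer (P : Set H)), ?_, card_subgroup_dvd_card _, ?_, ?_⟩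
  · rw [cN, ← (C.n11 U).2]; exact card_dvd_of_le inf_le_right
  · rw [← (normalizer (P : Set H)).card_mul_index, Nat.mul_div_cancel_left _ Nat.card_pos,
      ← P.card_eq_index_normalizer]
    exact card_sylow_modEq_one 11 H
  · rw [cN]
    exact card_dvd_of_le (inf_le_inf_left _ fun n hn => ti C x1 xU
      (zpowers_le.2 xU ((mem_normalizer_iff.1 hn x).1 (mem_zpowers x))))

omit [Finite G] in
theorem sylw (C : Ctx G) (p : ℕ) [hp : Fact p.Prime] {a : G} (oa : orderOf a = p)
    (h : ¬ p ^ 2 ∣ 86775571046077562880) : ∃ S : Sylow p G, (S : Subgroup G) = zpowers a := by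
  have c : Nat.card (zpowers a) = p ^ 1 := by rw [Nat.card_zpowers, oa, pow_one]
  refine ⟨(IsPGroup.of_card c).toSylow fun k => h ?_, rfl⟩
  rw [← C.card, ← (zpowers a).card_mul_index, c, pow_two, pow_one]
  exact Nat.mul_dvd_mul_left p k

end QL

theorem qQL (hALLD : ALLD) (hOK : OK.{u}) (hSYL : SYL.{u}) (_hCONG : CONG.{u}) : QL.{u} := by
  intro G _ _ C M a f x cM aM fM xM oa of ox da dx hc
  have : Fact (Nat.Prime 31) := ⟨by norm_num⟩
  have : Fact (Nat.Prime 5) := ⟨by norm_num⟩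
  refine ⟨fun e => ?_, fun H lt => ?_⟩
  · rw [e, card_top, C.card] at cM; omega
  have hn : Nat.card H ∣ 86775571046077562880 := C.card ▸ card_subgroup_dvd_card H
  have h0 : Nat.card H % 163680 = 0 := Nat.mod_eq_zero_of_dvd (cM ▸ card_dvd_of_le lt.le)
  obtain ⟨S, hS⟩ := QL.sylw C 31 oa (by norm_num)
  obtain ⟨F, hF⟩ := QL.sylw C 5 of (by norm_num)
  have s31 : Nat.card H / 163680 % 31 = 1 := by
    rw [← cM]
    refine hSYL G 31 S M H (hS ▸ zpowers_le.2 aM) lt.le (inf_le_right.trans ?_)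
    rw [hS]
    refine inf_eq_right.1 (eq_of_le_of_card_ge inf_le_right ?_)
    rw [(C.big 31 10 (by simp) a oa).2]
    exact Nat.le_of_dvd Nat.card_pos da
  have t := hALLD _ QL.a1 _ hn
  simp only [QL.t1, h0, s31, hOK G C H, bne_self_eq_false, Bool.not_true, Bool.false_or,
    Bool.or_eq_true, beq_iff_eq, Bool.and_eq_true, bne_iff_ne, List.any_eq_true] at t
  rcases t with t | ⟨t1, t2⟩
  · exact eq_top_of_card_eq H (t.trans C.card.symm)
  exfalso
  have s5 : Nat.card H / 163680 % 5 = 1 := by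
    rw [← cM]
    refine hSYL G 5 F M H (hF ▸ zpowers_le.2 fM) lt.le fun n h => ?_
    rw [hF] at h
    refine (hc H lt.le n h.1 ((mem_normalizer_iff.1 h.2 f).1 (mem_zpowers f))).resolve_right
      fun k => ?_
    exact t1.elim (· (Nat.mod_eq_zero_of_dvd k.1)) (· (Nat.mod_eq_zero_of_dvd k.2))
  obtain ⟨k, hk, e⟩ := t2.resolve_left (· s5)
  rcases List.mem_cons.1 hk with rfl | hk
  · exact lt.ne (eq_of_le_of_card_ge lt.le (by omega))
  obtain ⟨m, m1, m2, m3, m4⟩ := QL.eleven C (lt.le xM) ox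
  obtain ⟨j, rfl⟩ := (dx.trans (card_dvd_of_le (inf_le_inf_right _ lt.le))).trans m4
  have := Nat.le_of_dvd (by norm_num) m1
  exact QL.a2 k hk j (by omega) m1 (e ▸ m2) (e ▸ m3)

end Cfsg.Agent.H97.JM
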