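import Cfsg.Agent.H41.JU3Defs
import Cfsg.Agent.H24.JmALLD
import Cfsg.Agent.H7.JmOK
import Cfsg.Agent.H44.JmTI
import Cfsg.Agent.H86.JmCONG
import Cfsg.Agent.H33.J4Odd1

/-! Project JU3, piece BIG: a subgroup of order divisible by `1512 * 29 * 43` is everything. -/

set_option autoImplicit false

namespace Cfsg.Agent.H41.JU3

open Subgroup Cfsg.Agent.H97.JM

universe u

namespace BIG

def ti (n : ℕ) : Bool :=
  n % 1331 != 0 || (List.range 241).any fun d => 240 % d == 0 && n % (1331 * d) == 0 &&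
    n / (1331 * d) % 1331 == 1

def tst (n : ℕ) : Bool :=
  n % 1512 != 0 || n % 29 != 0 || n % 43 != 0 || !ok n || !ti n ||
    n == 86775571046077562880 || n == 43387785523038781440

theorem all_tst : allD tst = true := by decide +kernel

theorem ti_card {G : Type u} [Group G] [Finite G] (c : Ctx G) (H : Subgroup G) :
    ti (Nat.card H) = true := by
  have : Fact (Nat.Prime 11) := ⟨by norm_num⟩
  simp only [ti, Bool.or_eq_true, bne_iff_ne, List.any_eq_true, Bool.and_eq_true, beq_iff_eq,
    List.mem_range]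
  refine or_iff_not_imp_left.2 fun t => ?_
  obtain ⟨P, hP⟩ := Sylow.exists_subgroup_card_pow_prime (G := H) 11 (n := 3)
    (Nat.dvd_of_mod_eq_zero (not_not.1 t))
  obtain ⟨U, hU⟩ := H33.J4O.exists_sylow (p := 11) (A := P.map H.subtype) (k := 3)
    (by rw [card_map_of_injective H.subtype_injective, hP]) (by rw [c.card]; norm_num)
  have UH : (U : Subgroup G) ≤ H := hU ▸ map_subtype_le P
  have k := pTI G c U H UH
  obtain ⟨u1, u2⟩ := c.n11 U
  obtain ⟨e, he⟩ := card_dvd_of_le (le_inf UH le_normalizer)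
  have d1 := card_dvd_of_le (inf_le_left (a := H) (b := normalizer ((U : Subgroup G) : Set G)))
  have d2 := card_dvd_of_le (inf_le_right (a := H) (b := normalizer ((U : Subgroup G) : Set G)))
  rw [he, u1] at k d1 d2
  rw [u2] at d2
  have d3 : e ∣ 240 := Nat.dvd_of_mul_dvd_mul_left (k := 1331) (by norm_num) d2
  exact ⟨e, Nat.lt_succ_of_le (Nat.le_of_dvd (by norm_num) d3),
    ⟨Nat.mod_eq_zero_of_dvd d3, Nat.mod_eq_zero_of_dvd d1⟩, k⟩

end BIG

theorem pBIG : BIG.{u} := by
  intro G _ _ c H h1 h2 h3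
  have t := pALLD _ BIG.all_tst _ (c.card ▸ H.card_subgroup_dvd_card)
  simp only [BIG.tst, pOK pCONG G c H, BIG.ti_card c H, Nat.mod_eq_zero_of_dvd h1,
    Nat.mod_eq_zero_of_dvd h2, Nat.mod_eq_zero_of_dvd h3, bne_self_eq_false, Bool.not_true,
    Bool.false_or, Bool.or_eq_true, beq_iff_eq] at t
  rcases t with t | t
  · exact (card_eq_iff_eq_top H).1 (t.trans c.card.symm)
  · have := c.simple
    have ci := H.card_mul_index
    rw [c.card, t] at ci
    rcases (normal_of_index_eq_two (H := H) (by omega)).eq_bot_or_eq_top with e | e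
    · rw [e, card_bot] at t
      omega
    · exact e

end Cfsg.Agent.H41.JU3
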