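import Mathlib
import Cfsg.Agent.H45.OnDefs

/-! Basic facts about the lines of a class of components. -/

set_option autoImplicit false

namespace Cfsg.Agent.H90.OnLk

open Cfsg.Agent.H45.On

universe u v

section

variable {G : Type u} {Ω : Type v} [Group G] [Finite G] [MulAction G Ω] {S : S0 G Ω} (L : S.Li)

theorem max2 {z z' : Ω} {M M' : Subgroup G} (h : L.Cp z M) (h' : L.Cp z' M') (hne : M ≠ M') :
    Nat.card ↥(M ⊓ M') ≤ L.ν := by
  obtain ⟨-, g, rfl⟩ := h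
  obtain ⟨-, g', rfl⟩ := h'
  have e : cj g' L.A = cj g (cj (g⁻¹ * g') L.A) := by rw [← cj_mul, mul_inv_cancel_left]
  rw [e, ← cj_inf, card_cj]
  exact L.max _ fun h => hne (by rw [e, h])

theorem cardM {z : Ω} {M : Subgroup G} (h : L.Cp z M) : Nat.card M = Nat.card L.A := by
  obtain ⟨-, g, rfl⟩ := h
  exact card_cj _ _

theorem ne_bot' {U : Subgroup G} (h : Nat.card U = L.ν) : U ≠ ⊥ := by
  rintro rfl
  have := L.one_lt
  rw [← h, Subgroup.card_bot] at this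
  exact lt_irrefl _ this

theorem eq_at (sim : SimStmt.{u}) {U : Subgroup G} {z : Ω} {M M' : Subgroup G} (hU : U ≠ ⊥)
    (h : S.C z M) (h' : S.C z M') (l : U ≤ M) (l' : U ≤ M') : M = M' := by
  by_contra hne
  refine hU (eq_bot_iff.2 fun a ha => ?_)
  exact (sim M (S.simple h) (S.nab h)).2.2.2.2.2 a (l ha) fun m hm =>
    (S.comm h h' hne m hm a (l' ha)).symm

theorem cp (g : G) {z : Ω} {M : Subgroup G} (h : L.Cp z M) : L.Cp (g • z) (cj g M) := by
  obtain ⟨h, g', rfl⟩ := h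
  exact ⟨S.conj g h, g * g', (cj_mul _ _ _).symm⟩

theorem ln (g : G) {U : Subgroup G} (h : L.Ln U) : L.Ln (cj g U) := by
  obtain ⟨z, z', M, M', hz, h, h', rfl, hc⟩ := h
  exact ⟨g • z, g • z', cj g M, cj g M', fun e => hz (MulAction.injective g e), cp L g h, cp L g h',
    cj_inf _ _ _, (card_cj _ _).trans hc⟩

theorem on (g : G) {U : Subgroup G} {z : Ω} (h : L.On U z) : L.On (cj g U) (g • z) := by
  obtain ⟨M, h, l⟩ := h
  exact ⟨cj g M, cp L g h, cj_le.2 l⟩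

theorem lk (g : G) {M : Subgroup G} {w : Ω} (h : L.Lk M w) : L.Lk (cj g M) (g • w) := by
  obtain ⟨U, h, l, h'⟩ := h
  exact ⟨cj g U, ln L g h, cj_le.2 l, on L g h'⟩

theorem bl (g : G) {z w v : Ω} (h : v ∈ L.Bl z w) : g • v ∈ L.Bl (g • z) (g • w) := by
  intro U hU hz hw
  have h1 := on L g⁻¹ hz
  have h2 := on L g⁻¹ hw
  rw [inv_smul_smul] at h1 h2
  have := on L g (h _ (ln L g⁻¹ hU) h1 h2)
  rwa [cj_cj_inv] at this

theorem tr {z : Ω} {M M' : Subgroup G} (h : L.Cp z M) (h' : L.Cp z M') :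
    ∃ g : G, g • z = z ∧ M' = cj g M := by
  obtain ⟨h, g, rfl⟩ := h
  obtain ⟨h', g', rfl⟩ := h'
  have e : cj g' L.A = cj (g' * g⁻¹) (cj g L.A) := by rw [← cj_mul, inv_mul_cancel_right]
  exact ⟨g' * g⁻¹, L.uq _ _ _ (e ▸ S.conj _ h) h', e⟩

theorem join (sim : SimStmt.{u}) {z w : Ω} (hzw : z ≠ w) : ∃ U, L.Ln U ∧ L.On U z ∧ L.On U w := by
  obtain ⟨g, hg, hc⟩ := L.att
  obtain ⟨x, hx⟩ := L.hA
  have h0 : L.Cp x L.A := ⟨hx, 1, (cj_one _).symm⟩
  have h1 := cp L g h0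
  have hne : x ≠ g • x := fun e =>
    hg (eq_at sim (ne_bot' L hc) hx (e ▸ h1.1) inf_le_left inf_le_right).symm
  obtain ⟨k, rfl, rfl⟩ := S.tr2 x (g • x) z w hne hzw
  exact ⟨cj k (L.A ⊓ cj g L.A), ln L k ⟨x, g • x, _, _, hne, h0, h1, rfl, hc⟩,
    on L k ⟨_, h0, inf_le_left⟩, on L k ⟨_, h1, inf_le_right⟩⟩

/-- The elements normalizing `U`. -/
def nz (U : Subgroup G) : Subgroup G where
  carrier := {g | cj g U = U}
  mul_mem' {a b} ha hb := by
    simp only [Set.mem_setOf_eq] at *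
    rw [cj_mul, hb, ha]
  one_mem' := cj_one U
  inv_mem' {a} ha := by
    simp only [Set.mem_setOf_eq] at *
    conv_lhs => rw [← ha]
    exact cj_inv_cj _ _

theorem five (sim : SimStmt.{u}) (idx : Idx5Stmt.{u}) {U : Subgroup G} {z : Ω} {M : Subgroup G}
    (hU : L.Ln U) (h : L.Cp z M) (l : U ≤ M) : 5 ≤ {U' | ∃ s ∈ M, U' = cj s U}.ncard := by
  obtain ⟨z₁, z₂, M₁, M₂, hz, h₁, h₂, e, hc⟩ := hU
  have hn : ¬ M ≤ nz U := fun hle => by
    rcases (sim M (S.simple h.1) (S.nab h.1)).2.2.2.2.1 U l (fun s hs a ha => by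
      have : cj s U = U := hle hs
      rw [← this]
      exact cj_mem ha) with h0 | h0
    · exact ne_bot' L hc h0
    · have e₁ : M = M₁ := Subgroup.eq_of_le_of_card_ge (by rw [← h0, e]; exact inf_le_left)
        (by rw [cardM L h, cardM L h₁])
      have e₂ : M = M₂ := Subgroup.eq_of_le_of_card_ge (by rw [← h0, e]; exact inf_le_right)
        (by rw [cardM L h, cardM L h₂])
      exact hz (L.uq _ _ M (e₁ ▸ h₁.1) (e₂ ▸ h₂.1))
  obtain ⟨s, hs, hi⟩ := idx M (S.simple h.1) (S.nab h.1) _ hn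
  have hf : Function.Injective fun i => cj (s i) U := fun i j hij => hi i j (by
    show cj _ U = U
    rw [cj_mul, ← show cj (s i) U = cj (s j) U from hij, cj_inv_cj])
  calc 5 = (Set.range fun i => cj (s i) U).ncard := by rw [Set.ncard_range_of_injective hf]; simp
    _ ≤ _ := Set.ncard_le_ncard (by rintro _ ⟨i, rfl⟩; exact ⟨s i, hs i, rfl⟩) (Set.toFinite _)

theorem kk_le (g : G) (z : Ω) : L.kk z ≤ L.kk (g • z) :=
  Set.ncard_le_ncard_of_injOn (cj g) (fun _ h => cp L g h) (fun _ _ _ _ h => cj_inj h)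
    (Set.toFinite _)

theorem mu_le' (g : G) (z w : Ω) : L.mu z w ≤ L.mu (g • z) (g • w) :=
  Set.ncard_le_ncard_of_injOn (cj g) (fun _ h => ⟨cp L g h.1, lk L g h.2⟩)
    (fun _ _ _ _ h => cj_inj h) (Set.toFinite _)

theorem kk_le' (z z' : Ω) : L.kk z ≤ L.kk z' := by
  by_cases h : z = z'
  · rw [h]
  · obtain ⟨g, rfl, -⟩ := S.tr2 z z' z' z h (Ne.symm h)
    exact kk_le L g z

theorem mu_le2 {z w z' w' : Ω} (h : z ≠ w) (h' : z' ≠ w') : L.mu z w ≤ L.mu z' w' := by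
  obtain ⟨g, rfl, rfl⟩ := S.tr2 z w z' w' h h'
  exact mu_le' L g z w

end

theorem lkS (sim : SimStmt.{u}) (idx : Idx5Stmt.{u}) : LkStmt.{u, v} := by
  intro G Ω _ _ _ _ S L
  exact
    { ne_bot := fun ⟨_, _, _, _, _, _, _, _, hc⟩ => ne_bot' L hc
      eq_inf := fun {U z z' M M'} ⟨_, _, _, _, _, _, _, _, hc⟩ h h' l l' hz =>
        Subgroup.eq_of_le_of_card_ge (le_inf l l')
          (hc ▸ max2 L h h' fun e => hz (L.uq _ _ M h.1 (e ▸ h'.1)))
      eq_at := eq_at sim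
      cp := cp L
      ln := ln L
      on := on L
      lk := lk L
      bl := bl L
      tr := tr L
      join := join L sim
      fx := fun ⟨_, h, l⟩ m hm => S.fx h.1 m (l hm)
      five := five L sim idx
      kk_eq := fun z z' => le_antisymm (kk_le' L z z') (kk_le' L z' z)
      mu_eq := fun h h' => le_antisymm (mu_le2 L h h') (mu_le2 L h' h)
      mu_pos := fun h => by
        obtain ⟨U, hU, ⟨M, hM, l⟩, hw⟩ := join L sim h
        exact (Set.ncard_pos (Set.toFinite _)).2 ⟨M, hM, U, hU, l, hw⟩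
      mu_le := fun z w => Set.ncard_le_ncard (fun _ h => h.1) (Set.toFinite _) }

end Cfsg.Agent.H90.OnLk
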