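import Cfsg.Agent.H18.RfSc

/-! Project RF: the piece K2B. -/

set_option autoImplicit false

namespace Cfsg.Agent.H90.RfK2b

open Cfsg Subgroup Cfsg.Agent.H18.MaxOff Cfsg.Agent.H18.Rf

universe u

variable {G : Type u} [Group G]

theorem card_le_four {U : Subgroup G} {z w : G}
    (um : ∀ x, x ∈ U ↔ x = 1 ∨ x = z ∨ x = w ∨ x = z * w) : Nat.card U ≤ 4 := by
  have h : (U : Set G) = {1, z, w, z * w} := by ext x; simpa using um x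
  have e : Nat.card U = (U : Set G).ncard := rfl
  rw [e, h]
  refine (Set.ncard_insert_le _ _).trans (Nat.succ_le_succ ((Set.ncard_insert_le _ _).trans
    (Nat.succ_le_succ ((Set.ncard_insert_le _ _).trans ?_))))
  simp

/-- an element centralizing `V₀` modulo a group of order at most four -/
theorem big_fix [Finite G] {V V₀ U : Subgroup G} (el : ∀ v ∈ V, v * v = 1) (h0 : V₀ ≤ V)
    (c0 : Nat.card V₀ = 2 ^ 10) (hU : Nat.card U ≤ 4) {e : G} (en : e ∈ NN V)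
    (ec : ∀ x ∈ V₀, e * x * e⁻¹ * x⁻¹ ∈ U) : 2 ^ 8 ≤ Nat.card ↥(V ⊓ C1 e) := by
  have cv : ∀ x ∈ V₀, e * x * e⁻¹ ∈ V := fun x hx => (mem_normalizer_iff.1 en x).1 (h0 hx)
  let φ : V₀ →* U := MonoidHom.mk' (fun v => ⟨e * v * e⁻¹ * (v : G)⁻¹, ec v v.2⟩) (by
    rintro ⟨a, ha⟩ ⟨b, hb⟩
    apply Subtype.ext
    have h1 := comm_of_sq el (V.inv_mem (h0 ha)) (V.mul_mem (cv b hb) (V.inv_mem (h0 hb)))
    show e * (a * b) * e⁻¹ * (a * b)⁻¹ = e * a * e⁻¹ * a⁻¹ * (e * b * e⁻¹ * b⁻¹)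
    rw [mul_assoc (e * a * e⁻¹), h1]; group)
  have h1 : Nat.card φ.ker * φ.ker.index = 2 ^ 10 := by rw [card_mul_index, c0]
  have h2 : φ.ker.index ≤ 4 := by
    rw [index_ker]; exact (card_le_card_group _).trans hU
  have h3 : Nat.card φ.ker ≤ Nat.card ↥(V ⊓ C1 e) := by
    rw [← card_map_of_injective (f := V₀.subtype) (K := φ.ker) V₀.subtype_injective]
    refine card_le_of_le ?_
    rintro _ ⟨v, hv, rfl⟩
    refine ⟨h0 v.2, mem_centralizer_singleton_iff.2 ?_⟩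
    have : e * v * e⁻¹ * (v : G)⁻¹ = 1 := congrArg Subtype.val (MonoidHom.mem_ker.1 hv)
    rw [mul_inv_eq_one, mul_inv_eq_iff_eq_mul] at this
    exact this.symm
  nlinarith

theorem k2b (fc : FcStmt.{u}) (rk : RkGStmt.{u}) : K2bStmt.{u} := by
  intro G _ _ V ρ ψ O Q W gs w _ _ ek V₀ _ h0 c0 f ⟨fH, fC⟩
  have el := gs.st.el
  -- the description of `V ⊓ E`
  have key : ∀ e ∈ Ew V (ψ O) Q w,
      (∀ x ∈ V₀, e * x * e⁻¹ * x⁻¹ ∈ UU (ψ O) w) → e ∈ V := fun e he hx =>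
    rk G V ρ ψ gs.st gs.gol e he.1.1.1 (big_fix el h0 c0 (card_le_four ek.um) he.1.1.1 hx)
  have fE : f ∈ NN (Ew V (ψ O) Q w) := fH.2
  have fU : f ∈ NN (UU (ψ O) w) := fH.1.2
  have fz : f ∈ C1 (ψ O) := fH.1.1
  have conj : ∀ b ∈ V ⊓ Ew V (ψ O) Q w, f * b * f⁻¹ ∈ V := by
    rintro b ⟨bV, bE⟩
    refine key _ ((mem_normalizer_iff.1 fE b).1 bE) fun x hx => ?_
    have hκ : f⁻¹ * x * f⁻¹⁻¹ * x⁻¹ ∈ Cc V (ψ O) Q w := ((CM V₀ (Cc V (ψ O) Q w)).inv_mem fC).2 x hx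
    obtain ⟨κ, hk⟩ : ∃ κ, κ = f⁻¹ * x * f⁻¹⁻¹ * x⁻¹ := ⟨_, rfl⟩
    rw [← hk] at hκ
    have h1 : κ * b * κ⁻¹ * b⁻¹ ∈ UU (ψ O) w := hκ.2.2 b bE
    have h2 : x * b = b * x := comm_of_sq el (h0 hx) bV
    have h3 := (mem_normalizer_iff.1 fU _).1 (inv_mem h1)
    have e2 : b * (κ * x) * b⁻¹ * (κ * x)⁻¹ = (κ * b * κ⁻¹ * b⁻¹)⁻¹ := by
      have : b * (κ * x) * b⁻¹ * (κ * x)⁻¹ = b * κ * (x * b⁻¹ * x⁻¹) * κ⁻¹ := by group
      have h4 : x * b⁻¹ * x⁻¹ = b⁻¹ := by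
        rw [mul_inv_eq_iff_eq_mul]; exact (Commute.inv_right h2 : x * b⁻¹ = b⁻¹ * x)
      rw [this, h4]; group
    have e3 : f * b * f⁻¹ * x * (f * b * f⁻¹)⁻¹ * x⁻¹ =
        f * (b * (κ * x) * b⁻¹ * (κ * x)⁻¹) * f⁻¹ := by
      rw [hk]; group
    rw [e3, e2]; exact h3
  obtain ⟨n, nV, hn⟩ := fc G V el gs.wc (V ⊓ Ew V (ψ O) Q w : Subgroup G) f
    fun b hb => ⟨hb.1, conj b hb⟩
  have zW : ψ O ∈ W := gs.lc.qv ▸ ⟨gs.lc.xs.mem, gs.lc.zV⟩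
  have nz : n ∈ C1 (ψ O) := by
    have h1 := hn _ (ek.we zW)
    have h2 := mem_centralizer_singleton_iff.1 fz
    rw [h2, mul_inv_cancel_right] at h1
    exact mem_centralizer_singleton_iff.2 (by rw [eq_mul_inv_iff_mul_eq] at h1; exact h1.symm)
  have nQ : n ∈ NN Q := gs.lc.mq ⟨nV, nz⟩
  refine mem_norm_of_le fun a ha => ?_
  rw [hn a (ek.we ha)]
  rw [← gs.lc.qv] at ha ⊢
  exact ⟨(mem_normalizer_iff.1 nQ a).1 ha.1, (mem_normalizer_iff.1 nV a).1 ha.2⟩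

end Cfsg.Agent.H90.RfK2b
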