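import Cfsg.Agent.H35.RfQ

/-! Project RF: the piece XE. -/

set_option autoImplicit false

namespace Cfsg.Agent.H90.RfXe

open Cfsg Subgroup Cfsg.Agent.H18.Rf Cfsg.Agent.H35.RF
open scoped commutatorElement

universe u

variable {X : Type u} [Group X]

theorem conj_cases [Finite X] {ρ : X} (h3 : orderOf ρ = 3) (hn : (zpowers ρ).Normal) {x : X}
    (hx : x ∉ C1 ρ) : x * ρ * x⁻¹ = ρ⁻¹ := by
  classical
  have h1 := mem_zpowers_iff_mem_range_orderOf.1 (hn.conj_mem ρ (mem_zpowers ρ) x)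
  rw [h3] at h1
  obtain ⟨i, hi, e⟩ := Finset.mem_image.1 h1
  have p3 : ρ ^ 3 = 1 := h3 ▸ pow_orderOf_eq_one ρ
  have hi' : i = 0 ∨ i = 1 ∨ i = 2 := by have := Finset.mem_range.1 hi; omega
  rcases hi' with rfl | rfl | rfl
  · exfalso
    have : ρ = 1 := by
      rw [pow_zero, eq_comm, mul_inv_eq_one, mul_eq_left] at e; exact e
    rw [this, orderOf_one] at h3; omega
  · exfalso
    rw [pow_one, eq_mul_inv_iff_mul_eq] at e
    exact hx (mem_centralizer_singleton_iff.2 e.symm)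
  · rw [← e, eq_inv_iff_mul_eq_one, ← pow_succ, p3]

theorem index_two [Finite X] {ρ : X} (h3 : orderOf ρ = 3) (hn : (zpowers ρ).Normal)
    (hne : C1 ρ ≠ ⊤) : (C1 ρ).index = 2 := by
  obtain ⟨a, ha⟩ : ∃ a, a ∉ C1 ρ := by
    by_contra h
    push Not at h
    exact hne (eq_top_iff.2 fun x _ => h x)
  refine index_eq_two_iff_exists_notMem_and.2 ⟨a, ha, fun b => ?_⟩
  by_cases hb : b ∈ C1 ρ
  · exact .inr hb
  · refine .inl (mem_centralizer_singleton_iff.2 ?_)
    have e : b * a * ρ * (b * a)⁻¹ = ρ := by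
      rw [show b * a * ρ * (b * a)⁻¹ = b * (a * ρ * a⁻¹) * b⁻¹ by group, conj_cases h3 hn ha,
        show b * ρ⁻¹ * b⁻¹ = (b * ρ * b⁻¹)⁻¹ by group, conj_cases h3 hn hb, inv_inv]
    exact mul_inv_eq_iff_eq_mul.1 e

theorem arith {s m : ℕ} (hm : Odd m) (h1 : s * 3 ∣ 128 * m)
    (h2 : 128 * m ∣ 2 ^ 15 * 3 ^ 8 * 5 * 7 * 11) : s ∣ 2 ^ 7 * 3 ^ 7 * 5 * 7 * 11 := by
  have h3 : m ∣ 2 ^ 8 * (3 ^ 8 * 5 * 7 * 11) :=
    Nat.dvd_of_mul_dvd_mul_left (show 0 < 128 by norm_num) (h2.trans (by norm_num))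
  have h4 : m ∣ 3 ^ 8 * 5 * 7 * 11 :=
    (Nat.Coprime.pow_right 8 (Nat.coprime_two_right.2 hm)).dvd_of_dvd_mul_left h3
  exact Nat.dvd_of_mul_dvd_mul_right (show 0 < 3 by norm_num)
    ((h1.trans (Nat.mul_dvd_mul_left 128 h4)).trans (by norm_num))

theorem xe (gu : GuStmt.{u}) : XeStmt.{u} := by
  intro X A _ _ _ _ φ s W H E T ρ xf L xl hL
  have := xl.nrm
  have pf : Group.IsPerfect L := xl.qs.1
  have sp : IsSimpleGroup (L ⧸ center L) := xl.qs.2
  have ρL : ρ ∈ L := xl.le ⟨xf.ρH, mem_centralizer_singleton_iff.2 rfl⟩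
  have ρC : ρ ∈ CC L := fun l hl => mem_centralizer_singleton_iff.1 (hL hl)
  have eC : CC L = zpowers ρ := le_antisymm xl.cL (zpowers_le.2 ρC)
  have nρ : (zpowers ρ).Normal := eC ▸ inferInstance
  have inv : C1 ρ ≠ ⊤ := fun h => xf.inv (h ▸ le_top)
  have mz : ∀ l : L, l ∈ center L ↔ (l : X) ∈ zpowers ρ := fun l => by
    rw [← eC, mem_center_iff]
    exact ⟨fun h g hg => congrArg Subtype.val (h ⟨g, hg⟩), fun h g => Subtype.ext (h g g.2)⟩
  have cz : Nat.card (center L) = 3 := by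
    rw [← card_map_of_injective (f := L.subtype) (K := center L) L.subtype_injective, ← xf.ρ3,
      ← Nat.card_zpowers]
    congr 2
    ext x
    constructor
    · rintro ⟨l, hl, rfl⟩; exact (mz l).1 hl
    · intro hx; exact ⟨⟨x, zpowers_le.2 ρL hx⟩, (mz _).2 hx, rfl⟩
  have cL : Nat.card L = Nat.card (L ⧸ center L) * 3 := by
    rw [card_eq_card_quotient_mul_card_subgroup (center L), cz]
  have i2 := index_two xf.ρ3 nρ inv
  have := normal_of_index_eq_two i2
  obtain ⟨P, hP⟩ := xf.syl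
  have : Fact (Nat.Prime 2) := ⟨Nat.prime_two⟩
  have hm : Odd T.index := by
    rw [← hP]; exact Nat.odd_iff.2 (Nat.two_dvd_ne_zero.1 P.not_dvd_index)
  have cX : Nat.card X = 256 * T.index := by rw [← T.card_mul_index, xf.cT]
  have cC : Nat.card (C1 ρ) = 128 * T.index := by
    have := (C1 ρ).card_mul_index
    rw [i2, cX] at this; omega
  refine ⟨L ⧸ center L, inferInstance, inferInstance, QuotientGroup.mk' _,
    { nrm := xl.nrm, ρ3 := xf.ρ3, ρL := ρL, Lρ := hL, nρ := nρ, inv := inv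
      surj := QuotientGroup.mk'_surjective _
      ker := fun l => (QuotientGroup.eq_one_iff l).trans (mz l)
      simple := sp
      nonab := Group.IsPerfect.not_isMulCommutative _
      cL := ?_, two := ⟨_, hm, cX⟩, seven := ?_, dvd := ?_ }⟩
  · intro x hx
    have xK : x ∈ CM L (zpowers ρ) := ⟨by rw [NN, normalizer_eq_top]; trivial, hx⟩
    have k1 : ⁅CM L (zpowers ρ), L⁆ ≤ CC L := by
      rw [eC]; exact commutator_le.2 fun g hg l hl => hg.2 l hl
    have k2 : ⁅⁅CM L (zpowers ρ), L⁆, L⁆ = ⊥ := commutator_eq_bot_iff_le_centralizer.2 k1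
    have k3 := commutator_commutator_eq_bot_of_rotate (H₁ := L) (H₂ := L) (H₃ := CM L (zpowers ρ))
      (by rw [commutator_comm L]; exact k2) k2
    rw [commutator_eq_self, commutator_comm, commutator_eq_bot_iff_le_centralizer] at k3
    exact eC ▸ k3 xK
  · have h1 := ((C1 ρ).subgroupOf H).card_mul_index
    have h2 : ((C1 ρ).subgroupOf H).index ∣ 2 := i2 ▸ relIndex_dvd_index_of_normal (C1 ρ) H
    have h3 : Nat.card ((C1 ρ).subgroupOf H) ∣ Nat.card L := by
      rw [← card_map_of_injective (f := H.subtype) H.subtype_injective, subgroupOf_map_subtype,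
        inf_comm]
      exact card_dvd_of_le xl.le
    have h4 : 128 ∣ Nat.card ((C1 ρ).subgroupOf H) := by
      rw [xf.cH] at h1
      rcases (Nat.dvd_prime Nat.prime_two).1 h2 with e | e <;> rw [e] at h1 <;> omega
    have h5 := h4.trans h3
    rw [cL] at h5
    exact (by norm_num : Nat.Coprime 128 3).dvd_of_dvd_mul_right h5
  · refine arith hm ?_ ?_
    · rw [← cL, ← cC]; exact card_dvd_of_le hL
    · rw [← cC]
      exact gu X A φ s ρ xf.toXFq (xf.ρ3 ▸ pow_orderOf_eq_one ρ) xf.fpf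

end Cfsg.Agent.H90.RfXe
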